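import Cfsg.Agent.Linear.GLTwo

/-!
The projective line: triples of points, sharp 3-transitivity of `PGL_2`, 3-transitivity of `SL_2`
in characteristic 2.
-/

set_option autoImplicit false
set_option linter.unusedSectionVars false
set_option linter.unusedSimpArgs false

namespace Cfsg.Agent.Linear

open Matrix
open scoped LinearAlgebra.Projectivization MatrixGroups

variable {F : Type*} [Field F]

theorem sl_smul_eq_mulVec (g : SL(2, F)) (v : Fin 2 → F) :
    g • v = (g : Matrix (Fin 2) (Fin 2) F) *ᵥ v := by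
  rw [Matrix.SpecialLinearGroup.smul_def, Matrix.smul_eq_mulVec]

theorem gl_smul_eq_mulVec (g : GL (Fin 2) F) (v : Fin 2 → F) :
    g • v = (g : Matrix (Fin 2) (Fin 2) F) *ᵥ v := by
  rw [Units.smul_def, Matrix.smul_eq_mulVec]

/-- The point `[v]` of the projective line (`v ≠ 0`). -/
abbrev pt (v : Fin 2 → F) (hv : v ≠ 0) : ℙ F (Fin 2 → F) := Projectivization.mk F v hv

/-- The three standard points of the projective line. -/
noncomputable def stdPt : Fin 3 → ℙ F (Fin 2 → F) :=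
  ![pt ![1, 0] (by simp), pt ![0, 1] (by simp), pt ![1, 1] (by simp)]

/-- Any three distinct points are images of the standard ones, with control on the determinant. -/
theorem exists_matrix_stdPt {a b c : ℙ F (Fin 2 → F)} (hab : a ≠ b) (hac : a ≠ c) (hbc : b ≠ c) :
    ∃ M : Matrix (Fin 2) (Fin 2) F, ∃ (_ : M.det ≠ 0)
      (h0 : ![M 0 0, M 1 0] ≠ 0) (h1 : ![M 0 1, M 1 1] ≠ 0)
      (h2 : ![M 0 0 + M 0 1, M 1 0 + M 1 1] ≠ 0),
      pt _ h0 = a ∧ pt _ h1 = b ∧ pt _ h2 = c := by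
  induction a using Projectivization.ind with | _ v hv => ?_
  induction b using Projectivization.ind with | _ w hw => ?_
  induction c using Projectivization.ind with | _ u hu => ?_
  have hd : v 0 * w 1 - v 1 * w 0 ≠ 0 := by
    intro h
    apply hab
    rw [Projectivization.mk_eq_mk_iff']
    by_cases hw0 : w 0 = 0
    · have hw1 : w 1 ≠ 0 := fun h1 => hw (funext fun i => by fin_cases i <;> assumption)
      refine ⟨v 1 / w 1, funext fun i => ?_⟩
      fin_cases i <;> simp [hw0, hw1]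
      rw [hw0] at h; simp [hw1] at h; exact h.symm
    · refine ⟨v 0 / w 0, funext fun i => ?_⟩
      fin_cases i <;> simp [hw0]
      field_simp
      linear_combination h
  set al := (u 0 * w 1 - u 1 * w 0) / (v 0 * w 1 - v 1 * w 0) with hal
  set be := (v 0 * u 1 - v 1 * u 0) / (v 0 * w 1 - v 1 * w 0) with hbe
  have e0 : al * v 0 + be * w 0 = u 0 := by
    rw [hal, hbe, div_mul_eq_mul_div, div_mul_eq_mul_div, ← add_div, div_eq_iff hd]; ring
  have e1 : al * v 1 + be * w 1 = u 1 := by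
    rw [hal, hbe, div_mul_eq_mul_div, div_mul_eq_mul_div, ← add_div, div_eq_iff hd]; ring
  have hal0 : al ≠ 0 := by
    intro h
    rw [h, zero_mul, zero_add] at e0 e1
    exact hbc (((Projectivization.mk_eq_mk_iff' F u w hu hw).2
      ⟨be, funext fun i => by fin_cases i <;> assumption⟩).symm)
  have hbe0 : be ≠ 0 := by
    intro h
    rw [h, zero_mul, add_zero] at e0 e1
    exact hac (((Projectivization.mk_eq_mk_iff' F u v hu hv).2
      ⟨al, funext fun i => by fin_cases i <;> assumption⟩).symm)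
  refine ⟨!![al * v 0, be * w 0; al * v 1, be * w 1], ?_, ?_, ?_, ?_, ?_, ?_, ?_⟩
  · rw [Matrix.det_fin_two_of, show al * v 0 * (be * w 1) - be * w 0 * (al * v 1) =
      al * be * (v 0 * w 1 - v 1 * w 0) by ring]
    exact mul_ne_zero (mul_ne_zero hal0 hbe0) hd
  · intro h
    apply hv
    funext i
    have := congrFun h i
    fin_cases i <;> simp [hal0] at this <;> exact this
  · intro h
    apply hw
    funext i
    have := congrFun h i
    fin_cases i <;> simp [hbe0] at this <;> exact this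
  · intro h
    apply hu
    funext i
    have := congrFun h i
    fin_cases i <;> simp [e0, e1] at this <;> exact this
  · exact (Projectivization.mk_eq_mk_iff' F _ _ _ _).2
      ⟨al, funext fun i => by fin_cases i <;> simp⟩
  · exact (Projectivization.mk_eq_mk_iff' F _ _ _ _).2
      ⟨be, funext fun i => by fin_cases i <;> simp⟩
  · exact (Projectivization.mk_eq_mk_iff' F _ _ _ _).2
      ⟨1, funext fun i => by fin_cases i <;> simp [e0, e1]⟩

theorem exists_gl_stdPt {a b c : ℙ F (Fin 2 → F)} (hab : a ≠ b) (hac : a ≠ c) (hbc : b ≠ c) :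
    ∃ g : GL (Fin 2) F, (Matrix.ProjGenLinGroup.mk g) • stdPt 0 = a ∧
      (Matrix.ProjGenLinGroup.mk g) • stdPt 1 = b ∧
      (Matrix.ProjGenLinGroup.mk g) • stdPt 2 = c := by
  obtain ⟨M, hM, h0, h1, h2, e0, e1, e2⟩ := exists_matrix_stdPt hab hac hbc
  refine ⟨Matrix.GeneralLinearGroup.mkOfDetNeZero M hM, ?_, ?_, ?_⟩
  · rw [← e0]
    refine (Projectivization.mk_eq_mk_iff' F _ _ _ _).2 ⟨1, funext fun i => ?_⟩
    change _ = (Matrix.GeneralLinearGroup.mkOfDetNeZero M hM • (![1, 0] : Fin 2 → F)) i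
    fin_cases i <;> simp [gl_smul_eq_mulVec, Matrix.mulVec, dotProduct,
      Matrix.GeneralLinearGroup.mkOfDetNeZero, Matrix.GeneralLinearGroup.mk',
      Matrix.unitOfDetInvertible]
  · rw [← e1]
    refine (Projectivization.mk_eq_mk_iff' F _ _ _ _).2 ⟨1, funext fun i => ?_⟩
    change _ = (Matrix.GeneralLinearGroup.mkOfDetNeZero M hM • (![0, 1] : Fin 2 → F)) i
    fin_cases i <;> simp [gl_smul_eq_mulVec, Matrix.mulVec, dotProduct,
      Matrix.GeneralLinearGroup.mkOfDetNeZero, Matrix.GeneralLinearGroup.mk',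
      Matrix.unitOfDetInvertible]
  · rw [← e2]
    refine (Projectivization.mk_eq_mk_iff' F _ _ _ _).2 ⟨1, funext fun i => ?_⟩
    change _ = (Matrix.GeneralLinearGroup.mkOfDetNeZero M hM • (![1, 1] : Fin 2 → F)) i
    fin_cases i <;> simp [gl_smul_eq_mulVec, Matrix.mulVec, dotProduct,
      Matrix.GeneralLinearGroup.mkOfDetNeZero, Matrix.GeneralLinearGroup.mk',
      Matrix.unitOfDetInvertible]

theorem stdPt_ne {i j : Fin 3} (h : i ≠ j) : stdPt (F := F) i ≠ stdPt j := by
  intro he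
  fin_cases i <;> fin_cases j <;> first
    | exact absurd rfl h
    | (obtain ⟨a, ha⟩ := (Projectivization.mk_eq_mk_iff' F _ _ _ _).1 he
       have h0 := congrFun ha 0
       have h1 := congrFun ha 1
       simp_all)

theorem isMultiplyPretransitive_PGL_three :
    MulAction.IsMultiplyPretransitive (ProjGenLinGroup (Fin 2) F) (ℙ F (Fin 2 → F)) 3 := by
  rw [MulAction.isMultiplyPretransitive_iff]
  intro x y
  have hne : ∀ (z : Fin 3 ↪ ℙ F (Fin 2 → F)), z 0 ≠ z 1 ∧ z 0 ≠ z 2 ∧ z 1 ≠ z 2 := fun z =>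
    ⟨z.injective.ne (by decide), z.injective.ne (by decide), z.injective.ne (by decide)⟩
  obtain ⟨g, g0, g1, g2⟩ := exists_gl_stdPt (hne x).1 (hne x).2.1 (hne x).2.2
  obtain ⟨h, h0, h1, h2⟩ := exists_gl_stdPt (hne y).1 (hne y).2.1 (hne y).2.2
  refine ⟨Matrix.ProjGenLinGroup.mk h * (Matrix.ProjGenLinGroup.mk g)⁻¹, ?_⟩
  ext i
  rw [Function.Embedding.smul_apply, mul_smul]
  fin_cases i
  · change _ • _ • x 0 = y 0; rw [← g0, inv_smul_smul, h0]
  · change _ • _ • x 1 = y 1; rw [← g1, inv_smul_smul, h1]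
  · change _ • _ • x 2 = y 2; rw [← g2, inv_smul_smul, h2]

theorem PGL_eq_one_of_fix_stdPt {g : ProjGenLinGroup (Fin 2) F}
    (h : ∀ i, g • stdPt (F := F) i = stdPt i) : g = 1 := by
  induction g using Matrix.ProjGenLinGroup.induction_on with | _ g => ?_
  obtain ⟨a, ha⟩ := (Projectivization.mk_eq_mk_iff' F _ _ _ _).1 (h 0).symm
  obtain ⟨b, hb⟩ := (Projectivization.mk_eq_mk_iff' F _ _ _ _).1 (h 1).symm
  obtain ⟨c, hc⟩ := (Projectivization.mk_eq_mk_iff' F _ _ _ _).1 (h 2).symm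
  have a0 := congrFun ha 0
  have a1 := congrFun ha 1
  have b0 := congrFun hb 0
  have b1 := congrFun hb 1
  have c0 := congrFun hc 0
  have c1 := congrFun hc 1
  simp [gl_smul_eq_mulVec, Matrix.mulVec, dotProduct] at a0 a1 b0 b1 c0 c1
  have ha0 : a ≠ 0 := by rintro rfl; simp at a0
  have hb0 : b ≠ 0 := by rintro rfl; simp at b1
  have hc0 : c ≠ 0 := by rintro rfl; simp at c0
  have g10 : g 1 0 = 0 := by simpa [ha0] using a1
  have g01 : g 0 1 = 0 := by simpa [hb0] using b0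
  rw [g10, zero_add] at c1
  rw [g01, add_zero] at c0
  have g11 : g 1 1 = g 0 0 := mul_left_cancel₀ hc0 (c1.trans c0.symm)
  rw [Matrix.ProjGenLinGroup.mk_eq_one,
    Matrix.GeneralLinearGroup.mem_center_iff_val_mem_range_scalar]
  exact ⟨g 0 0, by ext i j; fin_cases i <;> fin_cases j <;> simp [g10, g01, g11]⟩

theorem PGL_eq_one_of_fix_three {g : ProjGenLinGroup (Fin 2) F} {a b c : ℙ F (Fin 2 → F)}
    (hab : a ≠ b) (hac : a ≠ c) (hbc : b ≠ c) (ha : g • a = a) (hb : g • b = b)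
    (hc : g • c = c) : g = 1 := by
  obtain ⟨h, h0, h1, h2⟩ := exists_gl_stdPt hab hac hbc
  have := PGL_eq_one_of_fix_stdPt
    (g := (Matrix.ProjGenLinGroup.mk h)⁻¹ * g * Matrix.ProjGenLinGroup.mk h) (fun i => by
      rw [mul_smul, mul_smul]
      fin_cases i
      · change _ • _ • _ • stdPt 0 = stdPt 0; rw [h0, ha, ← h0, inv_smul_smul]
      · change _ • _ • _ • stdPt 1 = stdPt 1; rw [h1, hb, ← h1, inv_smul_smul]
      · change _ • _ • _ • stdPt 2 = stdPt 2; rw [h2, hc, ← h2, inv_smul_smul])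
  rw [mul_assoc, inv_mul_eq_one, eq_comm, mul_eq_right] at this
  exact this

theorem exists_sl_stdPt (hsq : ∀ d : F, ∃ s, s * s = d) {a b c : ℙ F (Fin 2 → F)} (hab : a ≠ b)
    (hac : a ≠ c) (hbc : b ≠ c) :
    ∃ g : SL(2, F), g • stdPt 0 = a ∧ g • stdPt 1 = b ∧ g • stdPt 2 = c := by
  obtain ⟨M, hM, h0, h1, h2, e0, e1, e2⟩ := exists_matrix_stdPt hab hac hbc
  obtain ⟨s, hs⟩ := hsq (M.det)⁻¹
  have hdet : (s • M).det = 1 := by
    rw [Matrix.det_smul, Fintype.card_fin, sq, hs, inv_mul_cancel₀ hM]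
  obtain ⟨g, hg⟩ : ∃ g : SL(2, F), (g : Matrix (Fin 2) (Fin 2) F) = s • M := ⟨⟨s • M, hdet⟩, rfl⟩
  refine ⟨g, ?_, ?_, ?_⟩
  · rw [← e0]
    refine (Projectivization.mk_eq_mk_iff' F _ _ _ _).2 ⟨s, funext fun i => ?_⟩
    change _ = (g • (![1, 0] : Fin 2 → F)) i
    fin_cases i <;> simp [sl_smul_eq_mulVec, hg, Matrix.mulVec, dotProduct]
  · rw [← e1]
    refine (Projectivization.mk_eq_mk_iff' F _ _ _ _).2 ⟨s, funext fun i => ?_⟩
    change _ = (g • (![0, 1] : Fin 2 → F)) i
    fin_cases i <;> simp [sl_smul_eq_mulVec, hg, Matrix.mulVec, dotProduct]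
  · rw [← e2]
    refine (Projectivization.mk_eq_mk_iff' F _ _ _ _).2 ⟨s, funext fun i => ?_⟩
    change _ = (g • (![1, 1] : Fin 2 → F)) i
    fin_cases i <;> simp [sl_smul_eq_mulVec, hg, Matrix.mulVec, dotProduct, mul_add]

theorem isMultiplyPretransitive_SL_three_iff :
    MulAction.IsMultiplyPretransitive SL(2, F) (ℙ F (Fin 2 → F)) 3 ↔
      ∀ d : F, ∃ s, s * s = d := by
  rw [MulAction.isMultiplyPretransitive_iff]
  constructor
  · intro h d
    by_cases hd : d = 0
    · exact ⟨0, by simp [hd]⟩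
    let x : Fin 3 ↪ ℙ F (Fin 2 → F) :=
      ⟨stdPt, fun i j hij => by by_contra hne; exact stdPt_ne hne hij⟩
    let p3 : ℙ F (Fin 2 → F) := pt ![d, 1] (by simp)
    have hy : Function.Injective ![stdPt (F := F) 0, stdPt 1, p3] := by
      intro i j hij
      fin_cases i <;> fin_cases j <;> first
        | rfl
        | (obtain ⟨a, ha⟩ := (Projectivization.mk_eq_mk_iff' F _ _ _ _).1 hij
           have h0 := congrFun ha 0
           have h1 := congrFun ha 1
           simp_all)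
    obtain ⟨g, hg⟩ := h x ⟨_, hy⟩
    have hg' : ∀ i, g • stdPt (F := F) i = ![stdPt (F := F) 0, stdPt 1, p3] i := fun i =>
      congrArg (fun z : Fin 3 ↪ ℙ F (Fin 2 → F) => z i) hg
    have e0 : g • stdPt 0 = stdPt 0 := hg' 0
    have e1 : g • stdPt 1 = stdPt 1 := hg' 1
    have e2 : g • stdPt 2 = p3 := hg' 2
    obtain ⟨a, ha⟩ := (Projectivization.mk_eq_mk_iff' F _ _ _ _).1 e0.symm
    obtain ⟨b, hb⟩ := (Projectivization.mk_eq_mk_iff' F _ _ _ _).1 e1.symm
    obtain ⟨c, hc⟩ := (Projectivization.mk_eq_mk_iff' F _ _ _ _).1 e2.symm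
    have a0 := congrFun ha 0
    have a1 := congrFun ha 1
    have b0 := congrFun hb 0
    have b1 := congrFun hb 1
    have c0 := congrFun hc 0
    have c1 := congrFun hc 1
    simp [sl_smul_eq_mulVec, Matrix.mulVec, dotProduct] at a0 a1 b0 b1 c0 c1
    have g10 : g 1 0 = 0 := by
      have ha0 : a ≠ 0 := by rintro rfl; simp at a0
      simpa [ha0] using a1
    have g01 : g 0 1 = 0 := by
      have hb0 : b ≠ 0 := by rintro rfl; simp at b1
      simpa [hb0] using b0
    have hc0 : c ≠ 0 := by rintro rfl; simp at c1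
    rw [g10, zero_add] at c1
    rw [g01, add_zero] at c0
    have hdet := slTwo_det g
    rw [g10, g01, mul_zero, sub_zero] at hdet
    refine ⟨g 0 0, ?_⟩
    apply mul_left_cancel₀ hc0
    linear_combination g 0 0 * c0 - g 0 0 * d * c1 + c * d * hdet
  · intro h x y
    have hne : ∀ (z : Fin 3 ↪ ℙ F (Fin 2 → F)), z 0 ≠ z 1 ∧ z 0 ≠ z 2 ∧ z 1 ≠ z 2 := fun z =>
      ⟨z.injective.ne (by decide), z.injective.ne (by decide), z.injective.ne (by decide)⟩
    obtain ⟨g, g0, g1, g2⟩ := exists_sl_stdPt h (hne x).1 (hne x).2.1 (hne x).2.2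
    obtain ⟨k, k0, k1, k2⟩ := exists_sl_stdPt h (hne y).1 (hne y).2.1 (hne y).2.2
    refine ⟨k * g⁻¹, ?_⟩
    ext i
    rw [Function.Embedding.smul_apply, mul_smul]
    fin_cases i
    · change _ • _ • x 0 = y 0; rw [← g0, inv_smul_smul, k0]
    · change _ • _ • x 1 = y 1; rw [← g1, inv_smul_smul, k1]
    · change _ • _ • x 2 = y 2; rw [← g2, inv_smul_smul, k2]

theorem forall_exists_sq_iff [Fintype F] : (∀ d : F, ∃ s, s * s = d) ↔ ringChar F = 2 := by
  constructor
  · intro h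
    by_contra hc
    obtain ⟨a, ha⟩ := FiniteField.exists_nonsquare hc
    obtain ⟨s, hs⟩ := h a
    exact ha ⟨s, hs.symm⟩
  · intro hc d
    obtain ⟨s, hs⟩ := FiniteField.isSquare_of_char_two hc d
    exact ⟨s, hs.symm⟩

end Cfsg.Agent.Linear
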